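import Cfsg.Agent.Lib.CrossChar.SL
import Cfsg.Agent.Lib.Laws.Embeddings

/-! The bound `q^(n-1)(q-1)/2` for `Sp_2n(q)`, `q` odd. -/

namespace Cfsg.Agent.Lib.CrossChar

open Matrix

variable {F : Type*} [Field F]

/-- symmetric matrices -/
def symMat (n : ℕ) (F : Type*) [Field F] : Submodule F (Matrix (Fin n) (Fin n) F) where
  carrier := {S | S.IsSymm}
  add_mem' := fun {a b} ha hb => ha.add hb
  zero_mem' := Matrix.isSymm_zero
  smul_mem' := fun c a ha => ha.smul c

/-- `S ↦ A S Aᵀ` -/
def congrMap {n : ℕ} (A : Matrix (Fin n) (Fin n) F) : symMat n F →ₗ[F] symMat n F where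
  toFun S := ⟨A * S.1 * Aᵀ, by
    change (A * S.1 * Aᵀ)ᵀ = A * S.1 * Aᵀ
    rw [transpose_mul, transpose_mul, transpose_transpose, show S.1ᵀ = S.1 from S.2, mul_assoc]⟩
  map_add' S T := Subtype.ext (show A * (S.1 + T.1) * Aᵀ = A * S.1 * Aᵀ + A * T.1 * Aᵀ by noncomm_ring)
  map_smul' c S := Subtype.ext (show A * (c • S.1) * Aᵀ = c • (A * S.1 * Aᵀ) by
    rw [Matrix.mul_smul, Matrix.smul_mul])

theorem congrMap_mul {n : ℕ} (A B : Matrix (Fin n) (Fin n) F) :
    congrMap (A * B) = (congrMap A).comp (congrMap B) := by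
  apply LinearMap.ext
  intro S
  apply Subtype.ext
  change A * B * S.1 * (A * B)ᵀ = A * (B * S.1 * Bᵀ) * Aᵀ
  rw [transpose_mul]; noncomm_ring

/-- `a bᵀ + b aᵀ` -/
def sym2 {n : ℕ} (a b : Fin n → F) : symMat n F :=
  ⟨vecMulVec a b + vecMulVec b a, by
    change (vecMulVec a b + vecMulVec b a)ᵀ = _
    rw [transpose_add, transpose_vecMulVec, transpose_vecMulVec, add_comm]⟩

theorem congrMap_sym2 {n : ℕ} (A : Matrix (Fin n) (Fin n) F) (a b : Fin n → F) :
    congrMap A (sym2 a b) = sym2 (A *ᵥ a) (A *ᵥ b) := by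
  apply Subtype.ext
  change A * (vecMulVec a b + vecMulVec b a) * Aᵀ = _
  rw [mul_add, add_mul, mul_vecMulVec, mul_vecMulVec, vecMulVec_mul, vecMulVec_mul, vecMul_transpose,
    vecMul_transpose]
  rfl

theorem sym2_add_left {n : ℕ} (a a' b : Fin n → F) : sym2 (a + a') b = sym2 a b + sym2 a' b := by
  apply Subtype.ext; change _ = (_ + _) + (_ + _); simp [sym2, add_vecMulVec, vecMulVec_add]; abel

theorem sym2_smul_left {n : ℕ} (c : F) (a b : Fin n → F) : sym2 (c • a) b = c • sym2 a b := by
  apply Subtype.ext; change _ = c • (_ + _); simp [sym2, smul_vecMulVec, vecMulVec_smul]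

theorem sym2_comm {n : ℕ} (a b : Fin n → F) : sym2 a b = sym2 b a := by
  apply Subtype.ext; simp [sym2, add_comm]

theorem sp_degree_bound [Fintype F] {q : ℕ} (hq : Fintype.card F = q) (hodd : Odd q) (n : ℕ) (hn : 2 ≤ n)
    {K : Type*} [Field K] (hK : ringChar K ≠ ringChar F) {d : ℕ}
    (ρ : ↥(Matrix.symplecticGroup (Fin n) F) →* GL (Fin d) K)
    (hker : ρ.ker ≤ Subgroup.center ↥(Matrix.symplecticGroup (Fin n) F)) :
    q ^ (n - 1) * (q - 1) / 2 ≤ d := by
  classical
  have hne : ringChar F ≠ 2 := fun h => by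
    rw [FiniteField.even_card_iff_char_two, hq] at h; rw [Nat.odd_iff] at hodd; omega
  have h2 : (2 : F) ≠ 0 := Ring.two_ne_zero hne
  let t : symMat n F → Matrix.symplecticGroup (Fin n) F := fun S =>
    ⟨fromBlocks 1 S.1 0 1, by
      rw [SymplecticGroup.mem_iff]
      simp [Matrix.J, fromBlocks_transpose, fromBlocks_multiply, show S.1ᵀ = S.1 from S.2]⟩
  have ht : ∀ a b, t (a + b) = t a * t b := by
    intro a b
    apply Subtype.ext
    change fromBlocks 1 (a.1 + b.1) 0 1 = fromBlocks 1 a.1 0 1 * fromBlocks 1 b.1 0 1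
    simp [fromBlocks_multiply, add_comm]
  have htn : ∃ v, ρ (t v) ≠ 1 := by
    set e : Fin n → F := Pi.single ⟨0, by omega⟩ 1 with he
    refine ⟨sym2 e e, fun h => ?_⟩
    have hc := Subgroup.mem_center_iff.1 (hker (MonoidHom.mem_ker.2 h))
      ⟨Matrix.J (Fin n) F, SymplecticGroup.J_mem _ _⟩
    have h1 := congrArg (fun X : Matrix.symplecticGroup (Fin n) F => X.1 (.inl ⟨0, by omega⟩) (.inl ⟨0, by omega⟩)) hc
    simp [t, Matrix.J, fromBlocks_multiply, sym2, he, vecMulVec_apply] at h1
    apply h2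
    linear_combination -h1
  have hσ : ∀ A : GL (Fin n) F, ∃ x : Matrix.symplecticGroup (Fin n) F,
      ∀ v, x * t v * x⁻¹ = t (congrMap (A : Matrix (Fin n) (Fin n) F) v) := by
    intro A
    refine ⟨Cfsg.Agent.Lib.Laws.glToSp n F A, fun v => ?_⟩
    rw [mul_inv_eq_iff_eq_mul]
    apply Subtype.ext
    change fromBlocks (A : Matrix (Fin n) (Fin n) F) 0 0 ((A⁻¹ : GL (Fin n) F) : Matrix (Fin n) (Fin n) F)ᵀ *
        fromBlocks 1 v.1 0 1 =
      fromBlocks 1 ((A : Matrix (Fin n) (Fin n) F) * v.1 * (A : Matrix (Fin n) (Fin n) F)ᵀ) 0 1 *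
        fromBlocks (A : Matrix (Fin n) (Fin n) F) 0 0 ((A⁻¹ : GL (Fin n) F) : Matrix (Fin n) (Fin n) F)ᵀ
    simp [fromBlocks_multiply, mul_assoc, ← transpose_mul]
  obtain ⟨f, hf, hbound⟩ := orbit_le (F := F)
    (card_ne_zero_of_ringChar_ne hK (Module.finrank F (symMat n F))
      (by rw [Nat.card_eq_fintype_card, Module.card_eq_pow_finrank (K := F) (V := symMat n F)]))
    ρ t ht htn (fun A : GL (Fin n) F => congrMap (A : Matrix (Fin n) (Fin n) F)) hσ
  -- a vector with nonzero square
  obtain ⟨a, ha⟩ : ∃ a, f (sym2 a a) ≠ 0 := by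
    by_contra hh
    push Not at hh
    apply hf
    have hpol : ∀ a b, f (sym2 a b) = 0 := by
      intro a b
      have := hh (a + b)
      rw [sym2_add_left, sym2_comm a (a + b), sym2_comm b (a + b), sym2_add_left, sym2_add_left, map_add,
        map_add, map_add, hh a, hh b, sym2_comm b a, zero_add, add_zero, ← two_mul] at this
      exact (mul_eq_zero.1 this).resolve_left h2
    apply LinearMap.ext
    intro S
    have e : (2 : F) • S = ∑ i, ∑ j, S.1 i j • sym2 (Pi.single i 1) (Pi.single j 1) := by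
      apply Subtype.ext
      simp only [Submodule.coe_smul, Submodule.coe_sum, sym2, smul_add, Finset.sum_add_distrib, two_smul]
      ext k l
      simp [Matrix.sum_apply, vecMulVec_apply, Pi.single_apply, ite_mul]
      exact (congrFun (congrFun S.2 k) l).symm
    have := congrArg f e
    simp [hpol] at this
    simpa [h2] using this
  obtain ⟨j, hj⟩ : ∃ j, a j ≠ 0 := by
    refine Function.ne_iff.1 fun h => ha ?_
    have : sym2 a a = 0 := by subst h; apply Subtype.ext; ext k l; simp [sym2, vecMulVec_apply]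
    rw [this, map_zero]
  let i0 : Fin n := ⟨0, by omega⟩
  let A0 : GL (Fin n) F := GeneralLinearGroup.mkOfDetNeZero
    (((1 : Matrix (Fin n) (Fin n) F).updateCol j a).submatrix id (Equiv.swap i0 j)) (by
      rw [det_permute', ← cramer_apply, cramer_one]
      refine mul_ne_zero ?_ (by simpa using hj)
      rcases Int.units_eq_one_or (Equiv.Perm.sign (Equiv.swap i0 j)) with h | h <;> simp [h])
  have hA0 : (A0 : Matrix (Fin n) (Fin n) F) *ᵥ Pi.single i0 1 = a := by
    change ((1 : Matrix (Fin n) (Fin n) F).updateCol j a).submatrix id (Equiv.swap i0 j) *ᵥ Pi.single i0 1 = a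
    rw [mulVec_single_one]
    ext i; simp
  set f0 := f.comp (congrMap (A0 : Matrix (Fin n) (Fin n) F)) with hf0
  have hb : f0 (sym2 (Pi.single i0 1) (Pi.single i0 1)) ≠ 0 := by
    rw [hf0, LinearMap.comp_apply, congrMap_sym2, hA0]; exact ha
  let sq : Fˣ →* Fˣ := powMonoidHom 2
  let J := sq.range × ({i : Fin n // i ≠ i0} → F)
  choose r hr using fun s : sq.range => s.2
  let row : J → Fin n → F := fun p i => if h : i = i0 then (r p.1 : F) else p.2 ⟨i, h⟩
  let B : J → GL (Fin n) F := fun p => GeneralLinearGroup.mkOfDetNeZero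
    ((1 : Matrix (Fin n) (Fin n) F).updateRow i0 (row p)) (by
      rw [← det_transpose, ← updateCol_transpose, transpose_one, ← cramer_apply, cramer_one]
      simp [row])
  have hB0 : ∀ p, (B p : Matrix (Fin n) (Fin n) F) *ᵥ Pi.single i0 1 = (r p.1 : F) • Pi.single i0 1 := by
    intro p
    change ((1 : Matrix (Fin n) (Fin n) F).updateRow i0 (row p)) *ᵥ Pi.single i0 1 = _
    rw [mulVec_single_one]
    ext i
    by_cases h : i = i0 <;> simp [h, row, updateRow_apply, Matrix.one_apply]
  have hBi : ∀ p (i : {i : Fin n // i ≠ i0}), (B p : Matrix (Fin n) (Fin n) F) *ᵥ Pi.single i.1 1 =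
      Pi.single i.1 1 + p.2 i • Pi.single i0 1 := by
    intro p i
    change ((1 : Matrix (Fin n) (Fin n) F).updateRow i0 (row p)) *ᵥ Pi.single i.1 1 = _
    rw [mulVec_single_one]
    ext k
    by_cases h : k = i0
    · subst h; simp [row, i.2, updateRow_apply, Pi.single_eq_of_ne (Ne.symm i.2)]
    · simp [h, updateRow_apply, Matrix.one_apply, Pi.single_apply]
  have hinj : Function.Injective (fun p : J => f.comp (congrMap ((A0 * B p : GL (Fin n) F) : Matrix (Fin n) (Fin n) F))) := by
    intro p p' h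
    have h' : ∀ S, f0 (congrMap (B p : Matrix (Fin n) (Fin n) F) S) = f0 (congrMap (B p' : Matrix (Fin n) (Fin n) F) S) := by
      intro S
      have := LinearMap.congr_fun h S
      simpa [hf0, congrMap_mul] using this
    have e0 := h' (sym2 (Pi.single i0 1) (Pi.single i0 1))
    simp only [congrMap_sym2, hB0, sym2_smul_left, map_smul, smul_eq_mul] at e0
    rw [sym2_comm, sym2_comm (Pi.single i0 1) ((r p'.1 : F) • _), sym2_smul_left, sym2_smul_left, map_smul,
      map_smul, smul_eq_mul, smul_eq_mul, ← mul_assoc, ← mul_assoc] at e0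
    have hs : p.1 = p'.1 := by
      apply Subtype.ext
      apply Units.ext
      rw [← hr p.1, ← hr p'.1]
      simpa [sq, sq, pow_two] using mul_right_cancel₀ hb e0
    refine Prod.ext hs (funext fun i => ?_)
    have ei := h' (sym2 (Pi.single i0 1) (Pi.single i.1 1))
    simp only [congrMap_sym2, hB0, hBi, sym2_smul_left, map_smul, smul_eq_mul] at ei
    rw [sym2_comm (Pi.single i0 1), sym2_comm (Pi.single i0 1) (_ + p'.2 i • _), sym2_add_left, sym2_add_left,
      sym2_smul_left, sym2_smul_left, map_add, map_add, map_smul, map_smul, hs, smul_eq_mul, smul_eq_mul] at ei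
    have := mul_left_cancel₀ (r p'.1).ne_zero ei
    exact mul_right_cancel₀ hb (add_left_cancel this)
  have hJ := hbound J (fun p => A0 * B p) hinj
  have hrange : Fintype.card sq.range * 2 = q - 1 := by
    rw [← Nat.card_eq_fintype_card, ← Subgroup.index_ker]
    have hk : Nat.card sq.ker = 2 := by
      rw [Nat.card_eq_two_iff]
      refine ⟨1, ⟨-1, by simp [sq]⟩, ?_, ?_⟩
      · intro h
        have := congrArg (fun x : sq.ker => ((x : Fˣ) : F)) h
        simp at this
        exact h2 (by linear_combination this)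
      · ext ⟨x, hx⟩
        simp only [Set.mem_insert_iff, Set.mem_singleton_iff, Set.mem_univ, iff_true]
        rw [MonoidHom.mem_ker] at hx
        have hx' : (x : F) * x = 1 := by simpa [sq, pow_two] using congrArg Units.val hx
        rcases mul_self_eq_one_iff.1 hx' with h | h
        · exact .inl (Subtype.ext (Units.ext h))
        · exact .inr (Subtype.ext (Units.ext h))
    have := sq.ker.card_mul_index
    rw [hk, Nat.card_units, Nat.card_eq_fintype_card, hq] at this
    rw [mul_comm]; exact this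
  have hcard : Fintype.card J = Fintype.card sq.range * q ^ (n - 1) := by
    simp [J, hq, Fintype.card_subtype_compl]
  rw [hcard] at hJ
  have : q ^ (n - 1) * (q - 1) / 2 = Fintype.card sq.range * q ^ (n - 1) := by
    rw [← hrange, ← mul_assoc, Nat.mul_div_cancel _ two_pos, mul_comm]
  omega

end Cfsg.Agent.Lib.CrossChar
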